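import Cfsg.Agent.Schur.Torus
import Cfsg.Agent.Schur.SL2b
import Cfsg.Agent.Suzuki.LieIso
import Cfsg.Agent.Suzuki.Cent

/-!
# Schur multiplier of the Suzuki groups `Sz(q)`, `q ≥ 32` (helper35)
-/

set_option autoImplicit false

open scoped commutatorElement

namespace Cfsg.Agent.SchurSuz

open Cfsg.Agent.Suz Cfsg.Agent.Schur

section form

variable {F : Type*} [Field F] [Fintype F] [CharP F 2] {m : ℕ} {A : Type*} [AddCommGroup A]

local notation "ϑ" => th F m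

/-- the weight of the centre is not additive -/
theorem exists_nonadditive (hm : 2 ≤ m) (hF : Fintype.card F = 2 ^ (2 * m + 1)) :
    ∃ x : F, x ≠ 0 ∧ 1 + x ≠ 0 ∧ ((1 + x) * ϑ (1 + x))⁻¹ - 1 - (x * ϑ x)⁻¹ ≠ 0 := by
  classical
  by_contra hcon
  push Not at hcon
  set e := 2 ^ (m + 1) with he
  -- the polynomial
  let f : Polynomial F := Polynomial.X ^ (2 * e + 2) + (Polynomial.X ^ (e + 2) + Polynomial.X ^ (2 * e + 1) +
    Polynomial.X ^ (e + 1) + Polynomial.X + Polynomial.X ^ e + 1)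
  have he8 : 8 ≤ e := by
    rw [he]
    calc 8 = 2 ^ 3 := by norm_num
      _ ≤ 2 ^ (m + 1) := Nat.pow_le_pow_right (by norm_num) (by omega)
  have hdeg : (Polynomial.X ^ (e + 2) + Polynomial.X ^ (2 * e + 1) +
    Polynomial.X ^ (e + 1) + Polynomial.X + Polynomial.X ^ e + 1 : Polynomial F).degree < ((2 * e + 2 : ℕ) : WithBot ℕ) := by
    have h1 : (Polynomial.X ^ (e + 2) + Polynomial.X ^ (2 * e + 1) +
      Polynomial.X ^ (e + 1) + Polynomial.X + Polynomial.X ^ e + 1 : Polynomial F).natDegree ≤ 2 * e + 1 := by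
      compute_degree
      all_goals omega
    refine lt_of_le_of_lt Polynomial.degree_le_natDegree ?_
    exact_mod_cast (by omega)
  have hmonic : f.Monic := Polynomial.monic_X_pow_add hdeg
  have hnat : f.natDegree = 2 * e + 2 := by
    apply Polynomial.natDegree_eq_of_degree_eq_some
    show (Polynomial.X ^ (2 * e + 2) + _ : Polynomial F).degree = _
    rw [Polynomial.degree_add_eq_left_of_degree_lt]
    · rw [Polynomial.degree_X_pow]
    · rw [Polynomial.degree_X_pow]; exact hdeg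
  have hroot : ∀ x : F, x ≠ 0 → x ≠ 1 → f.eval x = 0 := by
    intro x hx0 hx1
    have h1x : 1 + x ≠ 0 := by
      intro h
      apply hx1
      have h2 : (2 : F) = 0 := CharTwo.two_eq_zero
      linear_combination h - h2
    have h := hcon x hx0 h1x
    have ht : ϑ x = x ^ e := th_apply x
    have ht0 : ϑ x ≠ 0 := by rw [ht]; exact pow_ne_zero _ hx0
    have h1t : 1 + ϑ x ≠ 0 := by
      intro h0
      apply h1x
      apply th_injective (F := F) (m := m)
      rw [map_add, map_one, map_zero]; exact h0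
    rw [map_add, map_one] at h
    have h3 : x * ϑ x = (1 + x) * (1 + ϑ x) * (x * ϑ x + 1) := by
      field_simp at h
      linear_combination h
    show (Polynomial.X ^ (2 * e + 2) + _ : Polynomial F).eval x = 0
    simp only [Polynomial.eval_add, Polynomial.eval_pow, Polynomial.eval_X, Polynomial.eval_one]
    have e1 : x ^ (2 * e + 2) = x ^ 2 * (ϑ x) ^ 2 := by rw [ht]; ring
    have e2 : x ^ (e + 2) = x ^ 2 * ϑ x := by rw [ht]; ring
    have e3 : x ^ (2 * e + 1) = x * (ϑ x) ^ 2 := by rw [ht]; ring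
    have e4 : x ^ (e + 1) = x * ϑ x := by rw [ht]; ring
    rw [e1, e2, e3, e4, ← ht]
    linear_combination -h3
  have hZ : (Finset.univ \ {0, 1} : Finset F).val ⊆ f.roots := by
    intro x hx
    have hx' : x ∈ (Finset.univ \ {0, 1} : Finset F) := hx
    simp only [Finset.mem_sdiff, Finset.mem_univ, true_and, Finset.mem_insert, Finset.mem_singleton, not_or] at hx'
    rw [Polynomial.mem_roots hmonic.ne_zero]
    exact hroot x hx'.1 hx'.2
  have hcard := Polynomial.card_le_degree_of_subset_roots hZ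
  rw [hnat] at hcard
  have h01 : ({0, 1} : Finset F).card = 2 := by
    rw [Finset.card_pair]; exact zero_ne_one
  rw [Finset.card_sdiff_of_subset (Finset.subset_univ _), h01, Finset.card_univ, hF] at hcard
  have h2 : 2 ^ (2 * m + 1) = 2 ^ (m - 2) * 2 * (e * 2) := by
    rw [he, ← pow_succ, ← pow_succ, ← pow_add]
    congr 1; omega
  have h3 : 1 ≤ 2 ^ (m - 2) := Nat.one_le_pow _ _ (by norm_num)
  have h4 : 4 * e ≤ 2 ^ (m - 2) * 2 * (e * 2) := by
    calc 4 * e = 1 * 2 * (e * 2) := by ring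
      _ ≤ 2 ^ (m - 2) * 2 * (e * 2) := Nat.mul_le_mul_right _ (Nat.mul_le_mul_right _ h3)
  rw [← h2] at h4
  omega

/-- invariant forms pairing the two weights vanish -/
theorem mixed_form_zero (hm : 2 ≤ m) (hF : Fintype.card F = 2 ^ (2 * m + 1)) (B : F →+ F →+ A)
    (inv : ∀ ν : F, ν ≠ 0 → ∀ a d, B (ν * a) (ν * ϑ ν * d) = B a d) : B = 0 := by
  obtain ⟨x, hx0, hx1, hx⟩ := exists_nonadditive hm hF
  have hth : ∀ a : F, a ≠ 0 → ϑ a ≠ 0 := by
    intro a ha h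
    exact ha (th_injective (F := F) (m := m) (by rw [h, map_zero]))
  have h1 : ∀ a : F, a ≠ 0 → ∀ d, B a d = B 1 ((a * ϑ a)⁻¹ * d) := by
    intro a ha d
    rw [← inv a ha 1 ((a * ϑ a)⁻¹ * d), mul_one, mul_inv_cancel_left₀ (mul_ne_zero ha (hth a ha))]
  have h2 : ∀ d, B 1 (((((1 + x) * ϑ (1 + x))⁻¹ - 1 - (x * ϑ x)⁻¹)) * d) = 0 := by
    intro d
    have h3 : B (1 + x) d = B 1 d + B x d := by rw [map_add]; rfl
    rw [h1 _ hx1, h1 x hx0] at h3
    have e1 : ((((1 + x) * ϑ (1 + x))⁻¹ - 1 - (x * ϑ x)⁻¹)) * d = ((1 + x) * ϑ (1 + x))⁻¹ * d - d - (x * ϑ x)⁻¹ * d := by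
      ring
    rw [e1, map_sub, map_sub, h3]
    abel
  have h3 : ∀ d, B 1 d = 0 := by
    intro d
    have := h2 ((((1 + x) * ϑ (1 + x))⁻¹ - 1 - (x * ϑ x)⁻¹)⁻¹ * d)
    rwa [mul_inv_cancel_left₀ hx] at this
  ext a d
  by_cases ha : a = 0
  · subst ha; rw [map_zero]; rfl
  · rw [h1 a ha, h3]; rfl

end form

section main

variable {F : Type*} [Field F] [Fintype F] [CharP F 2] {m : ℕ} (hm : 2 ≤ m) (hF : Fintype.card F = 2 ^ (2 * m + 1))

local notation "ϑ" => th F m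

theorem th_surj (ν : F) (hν : ν ≠ 0) : ∃ μ : Fˣ, ϑ (μ : F) = ν := by
  obtain ⟨x, hx⟩ := (Finite.injective_iff_surjective.1 (th_injective (F := F) (m := m))) ν
  have hx0 : x ≠ 0 := by
    rintro rfl
    rw [map_zero] at hx
    exact hν hx.symm
  exact ⟨Units.mk0 x hx0, hx⟩

theorem hS_conj_tS (μ : Fˣ) (a b : F) :
    hS hF μ * tS hF a b * (hS hF μ)⁻¹ = tS hF (ϑ μ * a) (ϑ μ * ϑ (ϑ μ) * b) := by
  rw [hS_mul_tS, mul_inv_cancel_right, th_th hF]
  congr 1; ring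

/-- the centre of the Sylow 2-subgroup, as a homomorphism from the field -/
noncomputable def xz : Multiplicative F →* Cfsg.Sz F m where
  toFun t := tS hF 0 (Multiplicative.toAdd t)
  map_one' := tS_zero hF
  map_mul' a b := by
    rw [tS_mul, map_zero, toAdd_mul, zero_mul, add_zero, add_zero]

theorem xz_apply (t : F) : xz hF (Multiplicative.ofAdd t) = tS hF 0 t := rfl

theorem mem_xz {g : Cfsg.Sz F m} : g ∈ (xz hF).range ↔ ∃ t, g = tS hF 0 t := by
  constructor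
  · rintro ⟨t, rfl⟩; exact ⟨_, rfl⟩
  · rintro ⟨t, rfl⟩; exact ⟨Multiplicative.ofAdd t, rfl⟩

theorem comm_tS_tS (a b c d : F) :
    ⁅tS hF a b, tS hF c d⁆ = tS hF 0 (ϑ a * c + ϑ c * a) := by
  rw [commutatorElement_def, commutator_tS]

include hm hF in
theorem card_gt : 9 < Fintype.card F := by
  rw [hF]
  calc 9 < 2 ^ 5 := by norm_num
    _ ≤ 2 ^ (2 * m + 1) := Nat.pow_le_pow_right (by norm_num) (by omega)

theorem xz_conj (a : F) (ha : a ≠ 0) : ∃ h : Cfsg.Sz F m, ∀ t : F,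
    h * xz hF (Multiplicative.ofAdd t) * h⁻¹ = xz hF (Multiplicative.ofAdd (a * a * t)) := by
  have hinj : Function.Injective (fun μ : Fˣ => μ ^ 2 * Units.map (ϑ : F →* F) μ) := by
    intro μ ν h
    have h1 : (μ * ν⁻¹) ^ 2 * Units.map (ϑ : F →* F) (μ * ν⁻¹) = 1 := by
      have h' : μ ^ 2 * Units.map (ϑ : F →* F) μ = ν ^ 2 * Units.map (ϑ : F →* F) ν := h
      rw [mul_pow, map_mul, mul_mul_mul_comm, h', ← mul_mul_mul_comm, ← mul_pow, ← map_mul, mul_inv_cancel, map_one,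
        one_pow, one_mul]
    have h2 : ((μ * ν⁻¹ : Fˣ) : F) ^ 2 * ϑ ((μ * ν⁻¹ : Fˣ) : F) = 1 := by
      have := congrArg (fun u : Fˣ => (u : F)) h1
      simpa using this
    have h3 := unit_eq_one_of_sq hF h2
    rwa [mul_inv_eq_one] at h3
  obtain ⟨μ, hμ⟩ := (Finite.injective_iff_surjective.1 hinj) (Units.mk0 (a * a) (mul_ne_zero ha ha))
  have h2 : (μ : F) ^ 2 * ϑ (μ : F) = a * a := by
    have := congrArg (fun u : Fˣ => (u : F)) hμ
    simpa using this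
  refine ⟨hS hF μ, fun t => ?_⟩
  rw [xz_apply, xz_apply, hS_mul_tS, mul_inv_cancel_right, mul_zero, h2]

variable {Γ : Type*} [Group Γ] {σ : Γ →* Cfsg.Sz F m} (hσ : Function.Surjective σ)
  (hc : σ.ker ≤ Subgroup.center Γ)

include hm hσ hc in
/-- lifts of the centre commute -/
theorem zz {a b : Γ} (ha : σ a ∈ (xz hF).range) (hb : σ b ∈ (xz hF).range) : a * b = b * a :=
  root_lifts_commute hσ hc (xz hF) (xz_conj hF) (by have := card_gt hm hF; omega)
    (by have := card_gt hm hF; omega) a b ha hb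

theorem comm_eq_one_iff' {a b : Γ} : ⁅a, b⁆ = 1 ↔ a * b = b * a := by
  rw [commutatorElement_def, mul_inv_eq_one, mul_inv_eq_iff_eq_mul]

theorem range_le_TT : (xz hF).range ≤ TT hF := by
  rintro _ ⟨t, rfl⟩
  exact tS_mem_TT hF _ _

/-- the mixed pairing -/
theorem mixed_mem (a d : F) : ⁅Function.surjInv hσ (tS hF a 0), Function.surjInv hσ (tS hF 0 d)⁆ ∈ σ.ker := by
  rw [MonoidHom.mem_ker, map_commutatorElement, Function.surjInv_eq hσ, Function.surjInv_eq hσ, comm_tS_tS]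
  rw [mul_zero, map_zero, zero_mul, add_zero, tS_zero]

open scoped IsMulCommutative in
include hm hσ hc in
/-- lifts of the centre commute with lifts of the Sylow subgroup -/
theorem tz {a b : Γ} (ha : σ a ∈ TT hF) (hb : σ b ∈ (xz hF).range) : a * b = b * a := by
  set s := Function.surjInv hσ with hs
  have hsσ : ∀ g, σ (s g) = g := Function.surjInv_eq hσ
  have hmem : ∀ a d, ⁅s (tS hF a 0), s (tS hF 0 d)⁆ ∈ Subgroup.center Γ := fun a d => hc (mixed_mem hF hσ a d)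
  have hz : ∀ w d : F, ⁅s (tS hF 0 w), s (tS hF 0 d)⁆ = 1 := by
    intro w d
    rw [comm_eq_one_iff']
    exact zz hm hF hσ hc (by rw [hsσ]; exact ⟨Multiplicative.ofAdd w, rfl⟩) (by rw [hsσ]; exact ⟨Multiplicative.ofAdd d, rfl⟩)
  let B : F →+ F →+ Additive (Subgroup.center Γ) := by
    refine AddMonoidHom.mk' (fun a => AddMonoidHom.mk' (fun d => Additive.ofMul
      ⟨⁅s (tS hF a 0), s (tS hF 0 d)⁆, hmem a d⟩) ?_) ?_
    · intro d d'
      rw [← ofMul_mul]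
      congr 1
      apply Subtype.ext
      rw [Subgroup.coe_mul]
      simp only
      rw [← comm_mul_right (hmem _ _)]
      apply comm_congr hc rfl
      rw [map_mul, hsσ, hsσ, hsσ, tS_mul]
      congr 1 <;> simp
    · intro a a'
      ext d
      change ⁅s (tS hF (a + a') 0), s (tS hF 0 d)⁆ = ⁅s (tS hF a 0), s (tS hF 0 d)⁆ * ⁅s (tS hF a' 0), s (tS hF 0 d)⁆
      rw [← comm_mul_left (hmem _ _)]
      have h1 : ⁅s (tS hF (a + a') 0) * s (tS hF 0 (ϑ a * a')), s (tS hF 0 d)⁆ = ⁅s (tS hF (a + a') 0), s (tS hF 0 d)⁆ := by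
        rw [comm_mul_left (by rw [hz]; exact Subgroup.one_mem _), hz, mul_one]
      rw [← h1]
      apply comm_congr hc ?_ rfl
      rw [map_mul, map_mul, hsσ, hsσ, hsσ, hsσ, tS_mul, tS_mul]
      congr 1 <;> simp
  have hB : B = 0 := by
    apply mixed_form_zero hm hF
    intro ν hν a d
    obtain ⟨μ, hμ⟩ := th_surj (m := m) ν hν
    apply Additive.toMul.injective
    apply Subtype.ext
    change ⁅s (tS hF (ν * a) 0), s (tS hF 0 (ν * ϑ ν * d))⁆ = ⁅s (tS hF a 0), s (tS hF 0 d)⁆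
    have h1 : ⁅s (tS hF (ν * a) 0), s (tS hF 0 (ν * ϑ ν * d))⁆ =
        ⁅s (hS hF μ) * s (tS hF a 0) * (s (hS hF μ))⁻¹, s (hS hF μ) * s (tS hF 0 d) * (s (hS hF μ))⁻¹⁆ := by
      apply comm_congr hc
      · rw [map_mul, map_mul, map_inv, hsσ, hsσ, hsσ, hS_conj_tS, hμ, mul_zero]
      · rw [map_mul, map_mul, map_inv, hsσ, hsσ, hsσ, hS_conj_tS, hμ, mul_zero]
    rw [h1, ← comm_conj, Subgroup.mem_center_iff.1 (hmem a d) (s (hS hF μ)), mul_inv_cancel_right]
  have hB' : ∀ a d, ⁅s (tS hF a 0), s (tS hF 0 d)⁆ = 1 := by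
    intro a d
    have h1 : B a d = 0 := by rw [hB]; rfl
    have h2 := congrArg Subtype.val (congrArg Additive.toMul h1)
    exact h2
  obtain ⟨x, y, hxy⟩ := (mem_TT hF).1 ha
  obtain ⟨d, hd⟩ := (mem_xz hF).1 hb
  rw [← comm_eq_one_iff']
  have h1 : ⁅a, b⁆ = ⁅s (tS hF x 0) * s (tS hF 0 y), s (tS hF 0 d)⁆ := by
    apply comm_congr hc
    · rw [map_mul, hsσ, hsσ, hxy, tS_mul]
      congr 1 <;> simp
    · rw [hsσ, hd]
  rw [h1, comm_mul_left (by rw [hz]; exact Subgroup.one_mem _), hz, mul_one, hB']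

/-- the commutative subgroup above the centre of the Sylow subgroup -/
noncomputable def preZ (σ : Γ →* Cfsg.Sz F m) : Subgroup Γ := (xz hF).range.comap σ

theorem mem_preZ {x : Γ} : x ∈ preZ hF σ ↔ σ x ∈ (xz hF).range := Iff.rfl

include hm hσ hc in
theorem preZ_comm (x y : preZ hF σ) : x * y = y * x :=
  Subtype.ext (zz hm hF hσ hc x.2 y.2)

theorem conj_mem_preZ {μ : Fˣ} {g x : Γ} (hg : σ g = hS hF μ) (hx : x ∈ preZ hF σ) :
    g * x * g⁻¹ ∈ preZ hF σ := by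
  obtain ⟨t, ht⟩ := (mem_xz hF).1 hx
  rw [mem_preZ, map_mul, map_mul, map_inv, hg, ht, hS_conj_tS, mul_zero]
  exact (mem_xz hF).2 ⟨_, rfl⟩

theorem comm_mem_preZ {a b : Γ} (ha : σ a ∈ TT hF) (hb : σ b ∈ TT hF) : ⁅a, b⁆ ∈ preZ hF σ := by
  obtain ⟨x, y, hxy⟩ := (mem_TT hF).1 ha
  obtain ⟨z, w, hzw⟩ := (mem_TT hF).1 hb
  rw [mem_preZ, map_commutatorElement, hxy, hzw, comm_tS_tS]
  exact (mem_xz hF).2 ⟨_, rfl⟩

theorem comm_mul_left' {G : Type*} [Group G] {a a' b : G} (h : a * ⁅a', b⁆ = ⁅a', b⁆ * a) :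
    ⁅a * a', b⁆ = ⁅a', b⁆ * ⁅a, b⁆ := by
  have h2 : ⁅a * a', b⁆ = (a * ⁅a', b⁆) * a⁻¹ * ⁅a, b⁆ := by
    simp only [commutatorElement_def]; group
  rw [h2, h, mul_inv_cancel_right]

theorem comm_mul_right' {G : Type*} [Group G] {a b b' : G} (h : b * ⁅a, b'⁆ = ⁅a, b'⁆ * b) :
    ⁅a, b * b'⁆ = ⁅a, b⁆ * ⁅a, b'⁆ := by
  have h2 : ⁅a, b * b'⁆ = ⁅a, b⁆ * ((b * ⁅a, b'⁆) * b⁻¹) := by
    simp only [commutatorElement_def]; group
  rw [h2, h, mul_inv_cancel_right]

include hm hσ hc in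
/-- elements of the kernel in the commutator subgroup of the preimage of the Sylow subgroup -/
theorem ker_pow_eq_one {k : Γ} (hk : k ∈ σ.ker) (hk' : k ∈ ⁅(TT hF).comap σ, (TT hF).comap σ⁆) :
    k ^ Nat.card Fˣ = 1 := by
  classical
  rw [Nat.card_eq_fintype_card]
  letI inst : CommGroup (preZ hF σ) :=
    { (inferInstance : Group (preZ hF σ)) with mul_comm := preZ_comm hm hF hσ hc }
  set s := Function.surjInv hσ with hs
  have hsσ : ∀ g, σ (s g) = g := Function.surjInv_eq hσ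
  let cj : Fˣ → (preZ hF σ →* preZ hF σ) := fun μ =>
    { toFun := fun x => ⟨s (hS hF μ) * x * (s (hS hF μ))⁻¹, conj_mem_preZ hF (hsσ _) x.2⟩
      map_one' := by
        apply Subtype.ext
        show s (hS hF μ) * (1 : Γ) * (s (hS hF μ))⁻¹ = 1
        rw [mul_one, mul_inv_cancel]
      map_mul' := fun x y => by
        apply Subtype.ext
        show s (hS hF μ) * ((x : Γ) * y) * (s (hS hF μ))⁻¹ =
          s (hS hF μ) * x * (s (hS hF μ))⁻¹ * (s (hS hF μ) * y * (s (hS hF μ))⁻¹)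
        group }
  have hcj : ∀ μ (x : preZ hF σ), ((cj μ x : preZ hF σ) : Γ) = s (hS hF μ) * x * (s (hS hF μ))⁻¹ := fun _ _ => rfl
  let N : preZ hF σ →* preZ hF σ := ∏ μ : Fˣ, cj μ
  have hN : ∀ x, N x = ∏ μ : Fˣ, cj μ x := fun x => MonoidHom.finsetProd_apply _ _ _
  have hcjm : ∀ μ ν x, cj μ (cj ν x) = cj (μ * ν) x := by
    intro μ ν x
    apply Subtype.ext
    rw [hcj, hcj, hcj]
    have h1 : (s (hS hF (μ * ν)))⁻¹ * (s (hS hF μ) * s (hS hF ν)) ∈ σ.ker := by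
      rw [MonoidHom.mem_ker, map_mul, map_inv, map_mul, hsσ, hsσ, hsσ, hS_mul, inv_mul_cancel]
    have h2 := Subgroup.mem_center_iff.1 (hc h1) x
    have h3 : s (hS hF μ) * s (hS hF ν) = s (hS hF (μ * ν)) * ((s (hS hF (μ * ν)))⁻¹ * (s (hS hF μ) * s (hS hF ν))) := by
      group
    set κ := (s (hS hF (μ * ν)))⁻¹ * (s (hS hF μ) * s (hS hF ν))
    calc s (hS hF μ) * (s (hS hF ν) * x * (s (hS hF ν))⁻¹) * (s (hS hF μ))⁻¹
        = (s (hS hF μ) * s (hS hF ν)) * x * (s (hS hF μ) * s (hS hF ν))⁻¹ := by group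
      _ = s (hS hF (μ * ν)) * (κ * x) * κ⁻¹ * (s (hS hF (μ * ν)))⁻¹ := by rw [h3]; group
      _ = s (hS hF (μ * ν)) * x * (s (hS hF (μ * ν)))⁻¹ := by rw [← h2]; group
  have hNinv : ∀ ν x, N (cj ν x) = N x := by
    intro ν x
    rw [hN, hN]
    refine Fintype.prod_equiv (Equiv.mulRight ν) _ _ fun μ => ?_
    exact hcjm μ ν x
  have hkA : ∀ k ∈ σ.ker, k ∈ preZ hF σ := by
    intro k hk
    rw [mem_preZ, MonoidHom.mem_ker.1 hk]
    exact Subgroup.one_mem _
  have hNk : ∀ (k : Γ) (hk : k ∈ σ.ker), N ⟨k, hkA k hk⟩ = ⟨k, hkA k hk⟩ ^ Fintype.card Fˣ := by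
    intro k hk
    rw [hN, Finset.prod_congr rfl (fun μ _ => ?_), Finset.prod_const, Finset.card_univ]
    apply Subtype.ext
    rw [hcj]
    show s (hS hF μ) * k * (s (hS hF μ))⁻¹ = k
    rw [Subgroup.mem_center_iff.1 (hc hk) (s (hS hF μ)), mul_inv_cancel_right]
  -- the form
  have htT : ∀ a b, σ (s (tS hF a b)) ∈ TT hF := fun a b => by rw [hsσ]; exact tS_mem_TT hF a b
  have htz : ∀ b, σ (s (tS hF 0 b)) ∈ (xz hF).range := fun b => by rw [hsσ]; exact (mem_xz hF).2 ⟨b, rfl⟩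
  have hcen : ∀ {x y : Γ}, σ x ∈ TT hF → y ∈ preZ hF σ → x * y = y * x := fun hx hy => tz hm hF hσ hc hx hy
  have hprod : ∀ (a b c d : F) (x y : Γ), σ x = tS hF a b → σ y = tS hF c d →
      ⁅x, y⁆ = ⁅s (tS hF a 0), s (tS hF c 0)⁆ := by
    intro a b c d x y hx hy
    have h1 : ⁅x, y⁆ = ⁅s (tS hF a 0) * s (tS hF 0 b), s (tS hF c 0) * s (tS hF 0 d)⁆ := by
      apply comm_congr hc
      · rw [map_mul, hsσ, hsσ, tS_mul, hx]; congr 1 <;> simp
      · rw [map_mul, hsσ, hsσ, tS_mul, hy]; congr 1 <;> simp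
    have e1 : ∀ w, σ w ∈ TT hF → ∀ b, ⁅s (tS hF 0 b), w⁆ = 1 := fun w hw b =>
      comm_eq_one_iff'.2 (hcen hw (htz b)).symm
    have e2 : ∀ w, σ w ∈ TT hF → ∀ b, ⁅w, s (tS hF 0 b)⁆ = 1 := fun w hw b =>
      comm_eq_one_iff'.2 (hcen hw (htz b))
    have hTc : σ (s (tS hF c 0) * s (tS hF 0 d)) ∈ TT hF := by
      rw [map_mul]; exact Subgroup.mul_mem _ (htT _ _) (htT _ _)
    rw [h1, comm_mul_left' (by rw [e1 _ hTc, mul_one, one_mul]), e1 _ hTc, one_mul,
      comm_mul_right' (by rw [e2 _ (htT _ _), mul_one, one_mul]), e2 _ (htT _ _), mul_one]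
  let B : F →+ F →+ Additive (preZ hF σ) := by
    refine AddMonoidHom.mk' (fun a => AddMonoidHom.mk' (fun c => Additive.ofMul
      (N ⟨⁅s (tS hF a 0), s (tS hF c 0)⁆, comm_mem_preZ hF (htT _ _) (htT _ _)⟩)) ?_) ?_
    · intro c c'
      rw [← ofMul_mul, ← map_mul]
      congr 2
      apply Subtype.ext
      rw [Subgroup.coe_mul]
      simp only
      rw [← comm_mul_right' (hcen (htT _ _) (comm_mem_preZ hF (htT _ _) (htT _ _)))]
      symm
      apply hprod a 0 (c + c') (ϑ c * c') _ _ (hsσ _)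
      rw [map_mul, hsσ, hsσ, tS_mul, zero_add, zero_add]
    · intro a a'
      refine AddMonoidHom.ext fun c => ?_
      change Additive.ofMul (N ⟨⁅s (tS hF (a + a') 0), s (tS hF c 0)⁆, _⟩) =
        Additive.ofMul (N ⟨⁅s (tS hF a 0), s (tS hF c 0)⁆, _⟩) + Additive.ofMul (N ⟨⁅s (tS hF a' 0), s (tS hF c 0)⁆, _⟩)
      rw [← ofMul_mul, mul_comm, ← map_mul]
      congr 2
      apply Subtype.ext
      change ⁅s (tS hF (a + a') 0), s (tS hF c 0)⁆ = ⁅s (tS hF a' 0), s (tS hF c 0)⁆ * ⁅s (tS hF a 0), s (tS hF c 0)⁆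
      rw [← comm_mul_left' (hcen (htT _ _) (comm_mem_preZ hF (htT _ _) (htT _ _)))]
      symm
      apply hprod (a + a') (ϑ a * a') c 0 _ _ ?_ (hsσ _)
      rw [map_mul, hsσ, hsσ, tS_mul, zero_add, zero_add]
  have hB : B = 0 := by
    apply torus_form_zero _ _ _ (by have := card_gt hm hF; omega) (by have := card_gt hm hF; omega)
    · intro a
      change Additive.ofMul (N ⟨⁅s (tS hF a 0), s (tS hF a 0)⁆, _⟩) = 0
      have h1 : (⟨⁅s (tS hF a 0), s (tS hF a 0)⁆, comm_mem_preZ hF (htT _ _) (htT _ _)⟩ : preZ hF σ) = 1 :=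
        Subtype.ext (commutatorElement_self _)
      rw [h1, map_one]; rfl
    · intro a ha x y
      obtain ⟨μ, hμ⟩ := th_surj (m := m) (a * a) (mul_ne_zero ha ha)
      change Additive.ofMul (N ⟨⁅s (tS hF (a * a * x) 0), s (tS hF (a * a * y) 0)⁆, _⟩) =
        Additive.ofMul (N ⟨⁅s (tS hF x 0), s (tS hF y 0)⁆, _⟩)
      congr 1
      rw [← hNinv μ ⟨⁅s (tS hF x 0), s (tS hF y 0)⁆, comm_mem_preZ hF (htT _ _) (htT _ _)⟩]
      congr 1
      apply Subtype.ext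
      rw [hcj]
      change ⁅s (tS hF (a * a * x) 0), s (tS hF (a * a * y) 0)⁆ =
        s (hS hF μ) * ⁅s (tS hF x 0), s (tS hF y 0)⁆ * (s (hS hF μ))⁻¹
      rw [comm_conj]
      symm
      apply hprod (a * a * x) 0 (a * a * y) 0
      · rw [map_mul, map_mul, map_inv, hsσ, hsσ, hS_conj_tS, hμ, mul_zero]
      · rw [map_mul, map_mul, map_inv, hsσ, hsσ, hS_conj_tS, hμ, mul_zero]
  -- `N` is trivial on the commutator subgroup
  have hNcomm : ∀ x ∈ ⁅(TT hF).comap σ, (TT hF).comap σ⁆, ∃ hx : x ∈ preZ hF σ, N ⟨x, hx⟩ = 1 := by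
    have hle : ⁅(TT hF).comap σ, (TT hF).comap σ⁆ ≤ N.ker.map (preZ hF σ).subtype := by
      rw [Subgroup.commutator_le]
      intro x hx y hy
      refine ⟨⟨⁅x, y⁆, comm_mem_preZ hF hx hy⟩, ?_, rfl⟩
      rw [SetLike.mem_coe, MonoidHom.mem_ker]
      obtain ⟨a, b, hab⟩ := (mem_TT hF).1 hx
      obtain ⟨c, d, hcd⟩ := (mem_TT hF).1 hy
      have h1 : B a c = 0 := by rw [hB]; rfl
      have h2 : (⟨⁅x, y⁆, comm_mem_preZ hF hx hy⟩ : preZ hF σ) =
          ⟨⁅s (tS hF a 0), s (tS hF c 0)⁆, comm_mem_preZ hF (htT _ _) (htT _ _)⟩ :=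
        Subtype.ext (hprod a b c d x y hab hcd)
      rw [h2]
      exact congrArg Additive.toMul h1
    intro x hx
    obtain ⟨y, hy, rfl⟩ := hle hx
    exact ⟨y.2, hy⟩
  obtain ⟨hx, hx1⟩ := hNcomm k hk'
  rw [hNk k hk] at hx1
  exact congrArg Subtype.val hx1

include hm hF in
/-- the 2-part -/
theorem ker_sylow_two [Finite Γ] (hst : IsStemExtension σ) (P : Sylow 2 Γ) :
    (σ.subgroupMap (P : Subgroup Γ)).ker = ⊥ := by
  have := Fact.mk Nat.prime_two
  obtain ⟨g, hg⟩ := MulAction.exists_smul_eq (Cfsg.Sz F m) (P.mapSurjective hst.1) (sylTT hF (by omega))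
  obtain ⟨γ, rfl⟩ := hst.1 g
  let f : (P : Subgroup Γ) →* Γ := (MulAut.conj γ).toMonoidHom.comp (P : Subgroup Γ).subtype
  have hf : ∀ a, f a = γ * a * γ⁻¹ := fun a => rfl
  have hmem : ∀ a, f a ∈ (TT hF).comap σ := by
    intro a
    have h1 : σ γ * σ a * (σ γ)⁻¹ ∈ ((σ γ • (P.mapSurjective hst.1) : Sylow 2 _) : Subgroup (Cfsg.Sz F m)) := by
      refine Subgroup.smul_mem_pointwise_smul (σ a) (MulAut.conj (σ γ)) _ ?_
      exact ⟨a, a.2, rfl⟩
    rw [hg] at h1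
    rw [Subgroup.mem_comap, hf, map_mul, map_mul, map_inv]
    exact h1
  rw [eq_bot_iff]
  intro a ha
  have ha1 := (stem_sylow hst P).2.2 ha
  have haσ : (a : Γ) ∈ σ.ker := by
    rw [MonoidHom.mem_ker] at ha ⊢
    exact congrArg Subtype.val ha
  have h1 : f a ∈ ⁅(TT hF).comap σ, (TT hF).comap σ⁆ := by
    have h2 : f a ∈ (commutator (P : Subgroup Γ)).map f := ⟨a, ha1, rfl⟩
    rw [commutator_def, Subgroup.map_commutator] at h2
    refine Subgroup.commutator_mono ?_ ?_ h2 <;>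
    · rintro _ ⟨x, -, rfl⟩
      exact hmem x
  have h2 : f a = a := by
    rw [hf, Subgroup.mem_center_iff.1 (hst.2.1 haσ) γ, mul_inv_cancel_right]
  rw [h2] at h1
  have h3 := ker_pow_eq_one hm hF hst.1 hst.2.1 haσ h1
  obtain ⟨n, hn⟩ := IsPGroup.iff_orderOf.1 P.isPGroup' a
  rw [Subgroup.mem_bot, ← orderOf_eq_one_iff, hn]
  have h4 : orderOf a ∣ Nat.card Fˣ := by
    apply orderOf_dvd_of_pow_eq_one
    exact Subtype.ext h3
  rw [hn, Nat.card_units, Nat.card_eq_fintype_card, hF] at h4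
  rcases n with _ | n
  · rw [pow_zero]
  · exfalso
    have h5 : 2 ∣ 2 ^ (2 * m + 1) - 1 := (dvd_pow_self 2 (Nat.succ_ne_zero n)).trans h4
    have h6 : 2 ∣ 2 ^ (2 * m + 1) := dvd_pow_self 2 (Nat.succ_ne_zero _)
    have h7 : 1 ≤ 2 ^ (2 * m + 1) := Nat.one_le_pow _ _ (by norm_num)
    omega

include hm hF in
theorem isCyclic_of_odd {p : ℕ} [Fact p.Prime] (hp : p ≠ 2) (R : Subgroup (Cfsg.Sz F m)) (hR : IsPGroup p R) :
    IsCyclic R := by
  by_cases hR1 : R = ⊥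
  · subst hR1
    infer_instance
  have hnt : Nontrivial R := (Subgroup.nontrivial_iff_ne_bot R).2 hR1
  have hnc : Nontrivial (Subgroup.center R) := hR.center_nontrivial
  obtain ⟨z, hz⟩ := exists_ne (1 : Subgroup.center R)
  have hz1 : ((z : R) : Cfsg.Sz F m) ≠ 1 := fun h => hz (Subtype.ext (Subtype.ext h))
  obtain ⟨k, hk⟩ := IsPGroup.iff_orderOf.1 hR (z : R)
  have hodd : ¬ 2 ∣ orderOf ((z : R) : Cfsg.Sz F m) := by
    rw [Subgroup.orderOf_coe, hk]
    intro h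
    have := (Nat.prime_dvd_prime_iff_eq Nat.prime_two (Fact.out : p.Prime)).1 (Nat.prime_two.dvd_of_dvd_pow h)
    exact hp this.symm
  have hcyc := isCyclic_centralizer_of_odd hF (by omega) hz1 hodd
  have hle : R ≤ Subgroup.centralizer {((z : R) : Cfsg.Sz F m)} := by
    intro x hx
    rw [Subgroup.mem_centralizer_singleton_iff]
    have := Subgroup.mem_center_iff.1 z.2 ⟨x, hx⟩
    exact congrArg Subtype.val this
  exact isCyclic_of_injective (Subgroup.inclusion hle) (Subgroup.inclusion_injective hle)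

include hm hF in
theorem ker_eq_bot [Finite Γ] (hst : IsStemExtension σ) : σ.ker = ⊥ := by
  apply ker_eq_bot_of_sylow hst.2.1
  intro p hp P hd
  by_cases h2 : p = 2
  · subst h2
    exact ker_sylow_two hm hF hst P
  · exact absurd hd (not_dvd_card_ker_of_cyclic hst P (isCyclic_of_odd hm hF h2 _ (P.isPGroup'.map σ)))

end main

end Cfsg.Agent.SchurSuz
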